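import Cfsg.Agent.NseSmall.Values

/-!
The values for the alternating groups, and the recognition step.
-/

set_option autoImplicit false
set_option maxRecDepth 100000
set_option maxHeartbeats 4000000

namespace CfsgLib.NseSmall

theorem cnt_prime {G : Type*} [Group G] [Fintype G] [DecidableEq G] (p : ℕ) [Fact p.Prime] :
    cnt G p = (Finset.univ.filter fun g : G => g ^ p = 1 ∧ g ≠ 1).card := by
  rw [cnt, Nat.card_eq_fintype_card, Fintype.card_subtype]
  refine congrArg Finset.card (Finset.filter_congr fun g _ => ?_)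
  exact orderOf_eq_prime_iff

theorem image_eq {G : Type*} [Group G] [Finite G] (S L : List ℕ)
    (hord : ∀ g : G, orderOf g ∈ L) (hex : ∀ m ∈ L, cnt G m ≠ 0)
    (hS : ∀ v, v ∈ S ↔ ∃ m ∈ L, cnt G m = v) :
    (fun m : ℕ => cnt G m) '' Set.range (orderOf : G → ℕ) = {v | v ∈ S} := by
  ext v
  simp only [Set.mem_image, Set.mem_range, Set.mem_setOf_eq, hS]
  constructor
  · rintro ⟨m, ⟨g, rfl⟩, h⟩; exact ⟨_, hord g, h⟩
  · rintro ⟨m, hm, h⟩; exact ⟨m, cnt_ne_zero_iff.1 (hex m hm), h⟩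

theorem cnt_one' (G : Type*) [Group G] [Finite G] : cnt G 1 = 1 := by
  rw [cnt, Nat.card_eq_one_iff_unique]
  exact ⟨⟨fun a b => Subtype.ext (by rw [orderOf_eq_one_iff.1 a.2, orderOf_eq_one_iff.1 b.2])⟩,
    ⟨⟨1, orderOf_one⟩⟩⟩

theorem alt_four :
    (fun m : ℕ => cnt (alternatingGroup (Fin 4)) m) '' Set.range (orderOf : alternatingGroup (Fin 4) → ℕ)
      = {v | v ∈ [1, 3, 8]} := by
  haveI : Fact (Nat.Prime 2) := ⟨Nat.prime_two⟩
  haveI : Fact (Nat.Prime 3) := ⟨Nat.prime_three⟩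
  have h2 : cnt (alternatingGroup (Fin 4)) 2 = 3 := by rw [cnt_prime]; decide +kernel
  have h3 : cnt (alternatingGroup (Fin 4)) 3 = 8 := by rw [cnt_prime]; decide +kernel
  refine image_eq _ [1, 2, 3] (fun g => ?_) (by simp [h2, h3, cnt_one']) (by simp [h2, h3, cnt_one', eq_comm])
  have h : ∀ g : alternatingGroup (Fin 4), g ^ 2 = 1 ∨ g ^ 3 = 1 := by decide +kernel
  rcases h g with h | h <;> have hd := orderOf_dvd_of_pow_eq_one h <;>
    rcases (Nat.dvd_prime (by norm_num)).1 hd with e | e <;> simp [e]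

theorem alt_five :
    (fun m : ℕ => cnt (alternatingGroup (Fin 5)) m) '' Set.range (orderOf : alternatingGroup (Fin 5) → ℕ)
      = {v | v ∈ [1, 15, 20, 24]} := by
  haveI : Fact (Nat.Prime 2) := ⟨Nat.prime_two⟩
  haveI : Fact (Nat.Prime 3) := ⟨Nat.prime_three⟩
  haveI : Fact (Nat.Prime 5) := ⟨by norm_num⟩
  have h2 : cnt (alternatingGroup (Fin 5)) 2 = 15 := by rw [cnt_prime]; decide +kernel
  have h3 : cnt (alternatingGroup (Fin 5)) 3 = 20 := by rw [cnt_prime]; decide +kernel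
  have h5 : cnt (alternatingGroup (Fin 5)) 5 = 24 := by rw [cnt_prime]; decide +kernel
  refine image_eq _ [1, 2, 3, 5] (fun g => ?_) (by simp [h2, h3, h5, cnt_one'])
    (by simp [h2, h3, h5, cnt_one', eq_comm])
  have h : ∀ g : alternatingGroup (Fin 5), g ^ 2 = 1 ∨ g ^ 3 = 1 ∨ g ^ 5 = 1 := by decide +kernel
  rcases h g with h | h | h <;> have hd := orderOf_dvd_of_pow_eq_one h <;>
    rcases (Nat.dvd_prime (by norm_num)).1 hd with e | e <;> simp [e]

theorem alt_six :
    (fun m : ℕ => cnt (alternatingGroup (Fin 6)) m) '' Set.range (orderOf : alternatingGroup (Fin 6) → ℕ)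
      = {v | v ∈ [1, 45, 80, 90, 144]} := by
  haveI : Fact (Nat.Prime 2) := ⟨Nat.prime_two⟩
  haveI : Fact (Nat.Prime 3) := ⟨Nat.prime_three⟩
  haveI : Fact (Nat.Prime 5) := ⟨by norm_num⟩
  have h2 : cnt (alternatingGroup (Fin 6)) 2 = 45 := by rw [cnt_prime]; decide +kernel
  have h3 : cnt (alternatingGroup (Fin 6)) 3 = 80 := by rw [cnt_prime]; decide +kernel
  have h5 : cnt (alternatingGroup (Fin 6)) 5 = 144 := by rw [cnt_prime]; decide +kernel
  have h4 : cnt (alternatingGroup (Fin 6)) 4 = 90 := by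
    rw [cnt, Nat.card_eq_fintype_card, Fintype.card_subtype]
    rw [Finset.filter_congr (q := fun g : alternatingGroup (Fin 6) => g ^ 4 = 1 ∧ g ^ 2 ≠ 1) fun g _ => ?_]
    · decide +kernel
    · constructor
      · intro h
        exact ⟨by rw [← h]; exact pow_orderOf_eq_one g, fun e => by
          have := Nat.le_of_dvd two_pos (orderOf_dvd_of_pow_eq_one e); omega⟩
      · rintro ⟨h, h'⟩
        exact orderOf_eq_prime_pow (p := 2) (n := 1) (by simpa using h') (by simpa using h)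
  refine image_eq _ [1, 2, 3, 4, 5] (fun g => ?_) (by simp [h2, h3, h4, h5, cnt_one'])
    (by simp [h2, h3, h4, h5, cnt_one', eq_comm])
  have h : ∀ g : alternatingGroup (Fin 6), g ^ 4 = 1 ∨ g ^ 3 = 1 ∨ g ^ 5 = 1 := by decide +kernel
  rcases h g with h | h | h <;> have hd := orderOf_dvd_of_pow_eq_one h
  · have := Nat.le_of_dvd (by norm_num) hd
    interval_cases hk : orderOf g <;> simp_all
  all_goals rcases (Nat.dvd_prime (by norm_num)).1 hd with e | e <;> simp [e]

end CfsgLib.NseSmall
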