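import Cfsg.Agent.NseSmall.Search
import Cfsg.Agent.Hall.FrobeniusCount
import Cfsg.Agent.S4003

/-!
The counting function of a group with a given set of such values.
-/

set_option autoImplicit false

namespace CfsgLib.NseSmall

variable {G : Type*} [Group G] [Finite G]

/-- The number of elements of order `m`. -/
noncomputable def cnt (G : Type*) [Group G] (m : ℕ) : ℕ := Nat.card {g : G // orderOf g = m}

theorem cnt_ne_zero_iff {m : ℕ} : cnt G m ≠ 0 ↔ ∃ g : G, orderOf g = m := by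
  rw [cnt, Nat.card_ne_zero]
  exact ⟨fun h => ⟨h.1.some.1, h.1.some.2⟩, fun ⟨g, hg⟩ => ⟨⟨⟨g, hg⟩⟩, inferInstance⟩⟩

theorem totient_dvd_cnt (m : ℕ) : m.totient ∣ cnt G m := by
  refine ⟨Nat.card {C : Subgroup G // C ≤ ⊤ ∧ IsCyclic C ∧ Nat.card C = m}, ?_⟩
  rw [← Cfsg.Agent.S4003.card_orderOf_eq m ⊤, cnt]
  exact Nat.card_congr (Equiv.subtypeEquivRight fun g => by simp)

theorem countFn {S : List ℕ}
    (h : (fun m : ℕ => cnt G m) '' Set.range (orderOf : G → ℕ) = {v | v ∈ S}) :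
    CountFn (cnt G) (Nat.card G) S := by
  classical
  haveI := Fintype.ofFinite G
  refine ⟨Nat.card_pos.ne', ?_, fun m hm => ?_, fun m d hm hd => ?_, fun m hm => ?_, fun n hn => ?_,
    fun v hv => ?_, fun s hs => ?_⟩
  · rw [cnt, Nat.card_eq_one_iff_unique]
    exact ⟨⟨fun a b => Subtype.ext (by rw [orderOf_eq_one_iff.1 a.2, orderOf_eq_one_iff.1 b.2])⟩,
      ⟨⟨1, orderOf_one⟩⟩⟩
  · obtain ⟨g, hg⟩ := cnt_ne_zero_iff.1 hm
    exact h.le ⟨m, ⟨g, hg⟩, rfl⟩
  · obtain ⟨g, hg⟩ := cnt_ne_zero_iff.1 hm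
    obtain ⟨e, rfl⟩ := hd
    refine cnt_ne_zero_iff.2 ⟨g ^ e, ?_⟩
    have hpos : 0 < d * e := hg ▸ orderOf_pos g
    rw [orderOf_pow, hg, Nat.gcd_eq_right (dvd_mul_left e d),
      Nat.mul_div_cancel _ (Nat.pos_of_ne_zero fun e0 => by simp [e0] at hpos)]
  · obtain ⟨g, hg⟩ := cnt_ne_zero_iff.1 hm
    exact hg ▸ orderOf_dvd_natCard g
  · have hn0 := (Nat.pos_of_dvd_of_pos hn Nat.card_pos).ne'
    have h1 := CfsgLib.Hall.frobenius_count hn
    have h2 : Nat.card {x : G // x ^ n = 1} = ∑ d ∈ n.divisors, cnt G d := by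
      rw [Nat.card_eq_fintype_card, Fintype.card_subtype]
      refine ((sum_card_orderOf_eq_card_pow_eq_one (G := G) hn0).trans (by congr)).symm.trans ?_
      refine Finset.sum_congr rfl fun m _ => ?_
      rw [cnt, Nat.card_eq_fintype_card, Fintype.card_subtype]
    rwa [h2] at h1
  · obtain ⟨m, ⟨g, hg⟩, hm⟩ := h.ge hv
    exact ⟨m, cnt_ne_zero_iff.2 ⟨g, hg⟩, hm⟩
  · rw [Nat.card_eq_fintype_card, ← Finset.card_univ, Finset.card_eq_sum_card_fiberwise
      (f := (orderOf : G → ℕ)) (t := s) fun g _ => hs _ (cnt_ne_zero_iff.2 ⟨g, rfl⟩)]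
    refine Finset.sum_congr rfl fun m _ => ?_
    rw [cnt, Nat.card_eq_fintype_card, Fintype.card_subtype]

/-- The candidates cover the orders that occur. -/
theorem determined {S : List ℕ} (A B C D : ℕ) (cand : List (ℕ × List ℕ)) (goal : List (ℕ × ℕ)) (b k : ℕ)
    (hf : CountFn (cnt G) (Nat.card G) S)
    (hS : ∀ v ∈ S, 0 < v ∧ v ≤ 144)
    (hpow : ∀ p < 146, ∀ j < 9, p.Prime → (∃ v ∈ S, p ^ j * (p - 1) ∣ v ∧ (j = 0 → p ∣ 1 + v)) →
      p ^ (j + 1) ∣ A * B * C * D)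
    (hcop : A.Coprime B ∧ (A * B).Coprime C ∧ (A * B * C).Coprime D)
    (hcand : ∀ a ∈ A.divisors, ∀ b ∈ B.divisors, ∀ c ∈ C.divisors, ∀ d ∈ D.divisors, ∀ v ∈ S,
      a.totient * b.totient * c.totient * d.totient ∣ v →
        a * b * c * d = 1 ∨ cand.any (fun x => x.1 == a * b * c * d && x.2.contains v) = true)
    (hne : A * B * C * D ≠ 0)
    (hsorted : cand.Pairwise fun x y => x.1 < y.1) (hone : ∀ x ∈ cand, x.1 ≠ 1)
    (hsearch : search goal b S k cand [(1, 1)] = true) :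
    (∀ x ∈ goal, cnt G x.1 = x.2) ∧ Nat.card G = (goal.map Prod.snd).sum ∧
      ∀ g : G, orderOf g ∈ goal.map Prod.fst := by
  refine (fun h => ⟨h.1, h.2.1, fun g => h.2.2 _ (cnt_ne_zero_iff.2 ⟨g, rfl⟩)⟩ :
    ((∀ x ∈ goal, cnt G x.1 = x.2) ∧ Nat.card G = (goal.map Prod.snd).sum ∧
      ∀ m, cnt G m ≠ 0 → m ∈ goal.map Prod.fst) → _) ?_
  refine search_sound hf goal b k cand _ hsearch ⟨by simp, ?_, fun m hm => ?_, ?_, hsorted⟩
  · intro x hx
    rw [List.mem_singleton] at hx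
    subst hx
    exact ⟨hf.one, one_ne_zero⟩
  · have hdiv : m ∣ A * B * C * D := by
      refine (Nat.dvd_iff_prime_pow_dvd_dvd _ _).2 fun p j hp hpj => ?_
      cases j with
      | zero => rw [pow_zero]; exact one_dvd _
      | succ j =>
        have hne' := hf.closed m _ hm hpj
        obtain ⟨hv0, hv144⟩ := hS _ (hf.mem _ hne')
        have ht := totient_dvd_cnt (G := G) (p ^ (j + 1))
        rw [Nat.totient_prime_pow_succ hp] at ht
        have hle := (Nat.le_of_dvd hv0 ht).trans hv144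
        have hp2 := hp.two_le
        have h1 : 1 ≤ p ^ j := Nat.one_le_pow _ _ hp.pos
        have hpb : p < 146 := by
          have : p - 1 ≤ p ^ j * (p - 1) := Nat.le_mul_of_pos_left _ h1
          omega
        have hjb : j < 9 := by
          by_contra hj
          have h9 : 2 ^ 9 ≤ p ^ j :=
            (Nat.pow_le_pow_left hp2 9).trans (Nat.pow_le_pow_right hp.pos (by omega))
          have : p ^ j ≤ p ^ j * (p - 1) := Nat.le_mul_of_pos_right _ (by omega)
          omega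
        refine hpow p hpb j hjb hp ⟨_, hf.mem _ hne', ht, fun hj => ?_⟩
        subst hj
        have := hf.frob p (by simpa using hf.dvdN _ hne')
        rw [hp.divisors, Finset.sum_pair hp.one_lt.ne, hf.one] at this
        simpa using this
    obtain ⟨x, d, hx, hd, rfl⟩ := Nat.dvd_mul.1 hdiv
    obtain ⟨y, c, hy, hc, rfl⟩ := Nat.dvd_mul.1 hx
    obtain ⟨a, b, ha, hb, rfl⟩ := Nat.dvd_mul.1 hy
    obtain ⟨hAB, hABC, hABCD⟩ := hcop
    simp only [mul_ne_zero_iff] at hne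
    obtain ⟨⟨⟨hA, hB⟩, hC⟩, hD⟩ := hne
    have ht := totient_dvd_cnt (G := G) (a * b * c * d)
    rw [Nat.totient_mul ((hABCD.coprime_dvd_left hx).coprime_dvd_right hd),
      Nat.totient_mul ((hABC.coprime_dvd_left hy).coprime_dvd_right hc),
      Nat.totient_mul ((hAB.coprime_dvd_left ha).coprime_dvd_right hb)] at ht
    rcases hcand a (Nat.mem_divisors.2 ⟨ha, hA⟩) b (Nat.mem_divisors.2 ⟨hb, hB⟩) c
      (Nat.mem_divisors.2 ⟨hc, hC⟩) d (Nat.mem_divisors.2 ⟨hd, hD⟩) _ (hf.mem _ hm) ht with e | e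
    · exact Or.inl (by simp [e])
    · obtain ⟨⟨m', os⟩, hmem, hh⟩ := List.any_eq_true.1 e
      simp only [Bool.and_eq_true, beq_iff_eq, List.contains_iff_mem] at hh
      exact Or.inr ⟨os, hh.1 ▸ hmem, hh.2⟩
  · intro x hx
    simpa using hone x hx

end CfsgLib.NseSmall
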