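import Cfsg.Agent.NseSmall.Counts

/-!
A group of order 60 or 360 with the numbers of elements of the alternating group is simple.
-/

set_option autoImplicit false

namespace CfsgLib.NseSmall

variable {G : Type*} [Group G] [Finite G]

theorem mem_of_coprime_index {N : Subgroup G} [N.Normal] {g : G} (h : (orderOf g).Coprime N.index) :
    g ∈ N := by
  rw [← QuotientGroup.eq_one_iff, ← orderOf_eq_one_iff]
  refine Nat.eq_one_of_dvd_coprimes h (orderOf_map_dvd (QuotientGroup.mk' N) g) ?_
  rw [Subgroup.index]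
  exact orderOf_dvd_natCard _

theorem cnt_sub (N : Subgroup G) [N.Normal] {p : ℕ} (hp : p.Prime) (h : ¬ p ∣ N.index) :
    cnt G p ≤ Nat.card {g : N // orderOf (g : G) = p} := by
  refine Nat.card_le_card_of_injective
    (fun g => ⟨⟨g.1, mem_of_coprime_index (by rw [g.2]; exact hp.coprime_iff_not_dvd.2 h)⟩, g.2⟩) ?_
  intro a b e
  exact Subtype.ext (congrArg (fun x => ((x.1 : N) : G)) e)

theorem card_two (N : Subgroup G) [N.Normal] {p q : ℕ} (hp : p.Prime) (hq : q.Prime) (hpq : p ≠ q)
    (h : ¬ p ∣ N.index) (h' : ¬ q ∣ N.index) : cnt G p + cnt G q < Nat.card N := by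
  classical
  haveI := Fintype.ofFinite N
  have h1 := cnt_sub N hp h
  have h2 := cnt_sub N hq h'
  rw [Nat.card_eq_fintype_card, Fintype.card_subtype] at h1 h2
  rw [Nat.card_eq_fintype_card, ← Finset.card_univ]
  have hd : Disjoint (Finset.univ.filter fun g : N => orderOf (g : G) = p)
      (Finset.univ.filter fun g : N => orderOf (g : G) = q) := by
    rw [Finset.disjoint_filter]; exact fun g _ e e' => hpq (e.symm.trans e')
  refine lt_of_le_of_lt (Nat.add_le_add h1 h2) ?_
  rw [← Finset.card_union_of_disjoint hd]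
  refine Finset.card_lt_card (Finset.ssubset_univ_iff.2 fun e => ?_)
  have := e.ge (Finset.mem_univ (1 : N))
  simp [orderOf_one, hp.ne_one.symm, hq.ne_one.symm] at this

/-- A group of order `60` or `360` with enough elements of order `3` and `5`, and none of order above `5`,
is simple. -/
theorem isSimple (hcase : (Nat.card G = 60 ∧ cnt G 3 = 20 ∧ cnt G 5 = 24) ∨
    (Nat.card G = 360 ∧ cnt G 3 = 80 ∧ cnt G 5 = 144)) (ho : ∀ g : G, orderOf g ≤ 5) : IsSimpleGroup G := by
  classical
  haveI : Fact (Nat.Prime 5) := ⟨by norm_num⟩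
  haveI : Fact (Nat.Prime 3) := ⟨Nat.prime_three⟩
  haveI : Fact (Nat.Prime 2) := ⟨Nat.prime_two⟩
  haveI : Nontrivial G := Finite.one_lt_card_iff_nontrivial.1 (by omega)
  refine ⟨fun N hN => ?_⟩
  by_contra hc
  push Not at hc
  haveI := hN
  have hmul := N.card_mul_index
  have hN1 : Nat.card N ≠ 1 := fun e => hc.1 (Subgroup.eq_bot_of_card_eq _ e)
  have hi1 : N.index ≠ 1 := fun e => hc.2 (Subgroup.index_eq_one.1 e)
  have hi0 : N.index ≠ 0 := Subgroup.index_ne_zero_of_finite
  by_cases h5 : 5 ∣ Nat.card N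
  · -- all elements of order five lie in `N`
    have h5i : ¬ 5 ∣ N.index := fun h => by
      have := Nat.mul_dvd_mul h5 h
      rcases hcase with ⟨e, -⟩ | ⟨e, -⟩ <;> omega
    have h5c := cnt_sub N (by norm_num) h5i
    have hle : cnt G 5 ≤ Nat.card N := h5c.trans (Nat.card_le_card_of_injective _ Subtype.val_injective)
    have hi2 : N.index = 2 := by
      rcases hcase with ⟨e, -, e5⟩ | ⟨e, -, e5⟩
      · have : N.index ≤ 2 := by
          by_contra h
          have h' : Nat.card N * 3 ≤ 60 := by
            calc Nat.card N * 3 ≤ Nat.card N * N.index := Nat.mul_le_mul_left _ (by omega)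
              _ = 60 := hmul.trans e
          omega
        omega
      · have : N.index ≤ 2 := by
          by_contra h
          have h' : Nat.card N * 3 ≤ 360 := by
            calc Nat.card N * 3 ≤ Nat.card N * N.index := Nat.mul_le_mul_left _ (by omega)
              _ = 360 := hmul.trans e
          omega
        omega
    have := card_two N (p := 5) (q := 3) (by norm_num) Nat.prime_three (by norm_num) h5i
      (by rw [hi2]; norm_num)
    rw [hi2] at hmul
    rcases hcase with ⟨e, e3, e5⟩ | ⟨e, e3, e5⟩ <;> omega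
  -- an element of order five acts without fixed points
  obtain ⟨x, hx⟩ := exists_prime_orderOf_dvd_card' (G := G) 5 (by rcases hcase with ⟨e, -⟩ | ⟨e, -⟩ <;> omega)
  have hfix : ∀ y ∈ N, x * y * x⁻¹ = y → y = 1 := by
    intro y hy hxy
    have hc' : Commute x y := mul_inv_eq_iff_eq_mul.1 hxy
    have hcop : (orderOf x).Coprime (orderOf y) := by
      rw [hx]
      refine (Nat.Prime.coprime_iff_not_dvd (by norm_num)).2 fun h => h5 (h.trans ?_)
      rw [← Subgroup.orderOf_mk y hy]
      exact orderOf_dvd_natCard _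
    have h1 := hc'.orderOf_mul_eq_mul_orderOf_of_coprime hcop
    have h2 := ho (x * y)
    rw [h1, hx] at h2
    exact orderOf_eq_one_iff.1 (by have := orderOf_pos y; omega)
  have hmod : ∀ T : Set G, T ⊆ N → (1 : G) ∉ T → (∀ y ∈ T, x * y * x⁻¹ ∈ T) → 5 ∣ Nat.card T := by
    intro T hT h1 hinv
    have hpg : IsPGroup 5 (Subgroup.zpowers x) := IsPGroup.of_card (n := 1) (by rw [Nat.card_zpowers, hx, pow_one])
    have hzinv : ∀ n : ℕ, ∀ y ∈ T, x ^ n * y * (x ^ n)⁻¹ ∈ T := by
      intro n
      induction n with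
      | zero => simp
      | succ n ih =>
        intro y hy
        have := ih _ (hinv y hy)
        rwa [show x ^ n * (x * y * x⁻¹) * (x ^ n)⁻¹ = x ^ (n + 1) * y * (x ^ (n + 1))⁻¹ by
          rw [pow_succ]; group] at this
    have hall : ∀ g ∈ Subgroup.zpowers x, ∀ y ∈ T, g * y * g⁻¹ ∈ T := by
      intro g hg
      obtain ⟨n, rfl⟩ := (Submonoid.mem_powers_iff _ _).1 (mem_powers_iff_mem_zpowers.2 hg)
      exact hzinv n
    letI : MulAction (Subgroup.zpowers x) T :=
      { smul := fun g y => ⟨(g : G) * (y : G) * (g : G)⁻¹, hall g g.2 y y.2⟩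
        one_smul := fun y => Subtype.ext (by show (1 : G) * y * 1⁻¹ = y; group)
        mul_smul := fun g h y => Subtype.ext (by
          show ((g : G) * (h : G)) * (y : G) * ((g : G) * (h : G))⁻¹ = (g : G) * ((h : G) * (y : G) * (h : G)⁻¹) * (g : G)⁻¹
          group) }
    have hcard := hpg.card_modEq_card_fixedPoints T
    have hempty : IsEmpty (MulAction.fixedPoints (Subgroup.zpowers x) T) :=
      ⟨fun ⟨y, hy⟩ => h1 (by
        have e := congrArg Subtype.val (hy ⟨x, Subgroup.mem_zpowers x⟩)
        have := hfix y (hT y.2) e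
        rw [← this]; exact y.2)⟩
    haveI := hempty
    rw [Nat.card_of_isEmpty (α := MulAction.fixedPoints (Subgroup.zpowers x) T)] at hcard
    exact Nat.modEq_zero_iff_dvd.1 hcard
  have h5N : 5 ∣ Nat.card N - 1 := by
    have h := hmod ((N : Set G) \ {1}) Set.sdiff_subset (by simp) fun y hy =>
      ⟨hN.conj_mem y hy.1 x, by
        simp only [Set.mem_singleton_iff, conj_eq_one_iff]; exact hy.2⟩
    rwa [Nat.card_coe_set_eq, Set.ncard_sdiff_singleton_of_mem (one_mem N), ← Nat.card_coe_set_eq] at h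
  -- so `N` has order six or thirty-six, and contains too few elements of order three
  have hdvd : Nat.card N ∣ 72 := by
    have hd := Subgroup.card_subgroup_dvd_card N
    have hcop : (Nat.card N).Coprime 5 := ((Nat.Prime.coprime_iff_not_dvd (by norm_num)).2 h5).symm
    refine hcop.dvd_of_dvd_mul_left (hd.trans ?_)
    rcases hcase with ⟨e, -⟩ | ⟨e, -⟩ <;> rw [e] <;> norm_num
  have hle := Nat.le_of_dvd (by norm_num) hdvd
  have h636 : Nat.card N = 6 ∨ Nat.card N = 36 := by
    interval_cases hk : Nat.card N <;> omega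
  rcases h636 with h6 | h36
  · set T : Set G := {y | y ∈ N ∧ orderOf y = 3}
    have hT : 5 ∣ Nat.card T := hmod T (fun y hy => hy.1) (by simp [T]) fun y hy =>
      ⟨hN.conj_mem y hy.1 x, by
        rw [show x * y * x⁻¹ = MulAut.conj x y from rfl, MulEquiv.orderOf_eq]; exact hy.2⟩
    obtain ⟨y, hy⟩ := exists_prime_orderOf_dvd_card' (G := N) 3 (by omega)
    obtain ⟨z, hz⟩ := exists_prime_orderOf_dvd_card' (G := N) 2 (by omega)
    have hy' : (y : G) ∈ T := ⟨y.2, (Subgroup.orderOf_coe y).trans hy⟩
    have hpos : 0 < Nat.card T := Nat.card_pos_iff.2 ⟨⟨⟨_, hy'⟩⟩, inferInstance⟩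
    have hsub : T ⊆ (N : Set G) \ {1, (z : G)} := fun w hw => ⟨hw.1, by
      simp only [Set.mem_insert_iff, Set.mem_singleton_iff]
      rintro (rfl | rfl)
      · have := hw.2; simp at this
      · have := hw.2; rw [Subgroup.orderOf_coe, hz] at this; omega⟩
    have hz1 : (1 : G) ≠ z := fun e => by
      rw [← Subgroup.orderOf_coe z, ← e, orderOf_one] at hz; omega
    have hc := Set.ncard_le_ncard hsub (Set.toFinite _)
    rw [Set.ncard_sdiff (by simp [Set.insert_subset_iff]), Set.ncard_pair hz1, ← Nat.card_coe_set_eq,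
      ← Nat.card_coe_set_eq, show Nat.card (N : Set G) = 6 from h6] at hc
    omega
  · have h3i : ¬ 3 ∣ N.index := by
      rintro ⟨j, hj⟩
      rw [h36] at hmul
      rcases hcase with ⟨e, -⟩ | ⟨e, -⟩ <;> omega
    have := (cnt_sub N Nat.prime_three h3i).trans (Nat.card_le_card_of_injective _ Subtype.val_injective)
    rw [h36] at this hmul
    rcases hcase with ⟨e, e3, -⟩ | ⟨e, e3, -⟩ <;> omega

end CfsgLib.NseSmall
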