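import Mathlib

/-!
A checked search for the functions "number of elements of order `m`" with given set of values.
-/

set_option autoImplicit false

namespace CfsgLib.NseSmall

/-- What is known about `f m`, the number of elements of order `m` in a group of order `N`. -/
structure CountFn (f : ℕ → ℕ) (N : ℕ) (S : List ℕ) : Prop where
  pos : N ≠ 0
  one : f 1 = 1
  mem : ∀ m, f m ≠ 0 → f m ∈ S
  closed : ∀ m d, f m ≠ 0 → d ∣ m → f d ≠ 0
  dvdN : ∀ m, f m ≠ 0 → m ∣ N
  frob : ∀ n, n ∣ N → n ∣ ∑ d ∈ n.divisors, f d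
  attained : ∀ v ∈ S, ∃ m, f m ≠ 0 ∧ f m = v
  total : ∀ s : Finset ℕ, (∀ m, f m ≠ 0 → m ∈ s) → N = ∑ m ∈ s, f m

/-- The sum of the recorded values at the keys dividing `n`. -/
def sumDvd (acc : List (ℕ × ℕ)) (n : ℕ) : ℕ :=
  ((acc.filter fun x => n % x.1 == 0).map Prod.snd).sum

/-- The check at a leaf: the recorded function is excluded, or it is the goal. -/
def leafOK (goal : List (ℕ × ℕ)) (B : ℕ) (vals : List ℕ) (acc : List (ℕ × ℕ)) : Bool :=
  let N := (acc.map Prod.snd).sum
  vals.any (fun v => !(acc.any fun x => x.2 == v)) || acc.any (fun x => !(N % x.1 == 0)) ||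
    ((List.range B).drop 2).any (fun n => N % n == 0 && !(sumDvd acc n % n == 0)) || acc == goal

/-- The search. -/
def search (goal : List (ℕ × ℕ)) (B : ℕ) (vals : List ℕ) :
    ℕ → List (ℕ × List ℕ) → List (ℕ × ℕ) → Bool
  | 0, _, _ => false
  | _ + 1, [], acc => leafOK goal B vals acc
  | k + 1, (m, os) :: r, acc =>
    search goal B vals k (r.filter fun x => !(x.1 % m == 0)) acc &&
      os.all fun v => !((v + sumDvd acc m) % m == 0) || search goal B vals k r ((m, v) :: acc)

variable {f : ℕ → ℕ} {N : ℕ} {vals : List ℕ}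

/-- `acc` records `f`, up to the candidates still to be decided. -/
structure Records (f : ℕ → ℕ) (rest : List (ℕ × List ℕ)) (acc : List (ℕ × ℕ)) : Prop where
  nodup : (acc.map Prod.fst).Nodup
  val : ∀ x ∈ acc, f x.1 = x.2 ∧ x.2 ≠ 0
  cover : ∀ m, f m ≠ 0 → m ∈ acc.map Prod.fst ∨ ∃ os, (m, os) ∈ rest ∧ f m ∈ os
  disj : ∀ x ∈ rest, x.1 ∉ acc.map Prod.fst
  sorted : rest.Pairwise fun x y => x.1 < y.1

theorem sum_eq {acc : List (ℕ × ℕ)} (hnd : (acc.map Prod.fst).Nodup)
    (hv : ∀ x ∈ acc, f x.1 = x.2 ∧ x.2 ≠ 0) (P : ℕ → Bool) (s : Finset ℕ)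
    (hsub : ∀ x ∈ acc, P x.1 = true → x.1 ∈ s)
    (hz : ∀ d ∈ s, f d ≠ 0 → d ∈ acc.map Prod.fst ∧ P d = true) :
    ((acc.filter fun x => P x.1).map Prod.snd).sum = ∑ d ∈ s, f d := by
  have hnd' : ((acc.filter fun x => P x.1).map Prod.fst).Nodup :=
    hnd.sublist (List.filter_sublist.map _)
  have e1 : (acc.filter fun x => P x.1).map Prod.snd =
      ((acc.filter fun x => P x.1).map Prod.fst).map f := by
    rw [List.map_map]
    refine List.map_congr_left fun x hx => ?_
    exact (hv x (List.mem_filter.1 hx).1).1.symm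
  rw [e1, ← List.sum_toFinset f hnd']
  refine Finset.sum_subset (fun d hd => ?_) fun d hd hd' => ?_
  · rw [List.mem_toFinset, List.mem_map] at hd
    obtain ⟨x, hx, rfl⟩ := hd
    exact hsub x (List.mem_filter.1 hx).1 (List.mem_filter.1 hx).2
  · by_contra h
    obtain ⟨hk, hP⟩ := hz d hd h
    obtain ⟨x, hx, rfl⟩ := List.mem_map.1 hk
    exact hd' (List.mem_toFinset.2 (List.mem_map.2 ⟨x, List.mem_filter.2 ⟨hx, hP⟩, rfl⟩))

theorem search_sound (hf : CountFn f N vals) (goal : List (ℕ × ℕ)) (B : ℕ) :
    ∀ k rest acc, search goal B vals k rest acc = true → Records f rest acc →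
      (∀ x ∈ goal, f x.1 = x.2) ∧ N = (goal.map Prod.snd).sum ∧
        ∀ m, f m ≠ 0 → m ∈ goal.map Prod.fst := by
  intro k
  induction k with
  | zero => intro rest acc h; simp [search] at h
  | succ k ih =>
    intro rest acc h hR
    match rest with
    | [] =>
      have hall : ∀ m, f m ≠ 0 → m ∈ acc.map Prod.fst := fun m hm =>
        (hR.cover m hm).resolve_right fun ⟨os, ho, _⟩ => List.not_mem_nil ho
      have hN : (acc.map Prod.snd).sum = N := by
        rw [hf.total (acc.map Prod.fst).toFinset fun m hm => List.mem_toFinset.2 (hall m hm)]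
        simpa using sum_eq hR.nodup hR.val (fun _ => true) (acc.map Prod.fst).toFinset
          (fun x hx _ => List.mem_toFinset.2 (List.mem_map.2 ⟨x, hx, rfl⟩))
          (fun d hd _ => ⟨List.mem_toFinset.1 hd, rfl⟩)
      simp only [search, leafOK, hN, Bool.or_eq_true, List.any_eq_true] at h
      rcases h with ((⟨v, hv, hn⟩ | ⟨x, hx, hn⟩) | ⟨n, hn, hn'⟩) | h
      · exfalso
        obtain ⟨m, hm, rfl⟩ := hf.attained v hv
        obtain ⟨x, hx, rfl⟩ := List.mem_map.1 (hall m hm)
        rw [Bool.not_eq_true', List.any_eq_false] at hn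
        exact hn x hx (by simp [(hR.val x hx).1])
      · exfalso
        have hd := hf.dvdN x.1 ((hR.val x hx).1.trans_ne (hR.val x hx).2)
        simp [Nat.mod_eq_zero_of_dvd hd] at hn
      · exfalso
        simp only [Bool.and_eq_true, beq_iff_eq, Bool.not_eq_true', beq_eq_false_iff_ne] at hn'
        have hdN : n ∣ N := Nat.dvd_of_mod_eq_zero hn'.1
        have hn0 : n ≠ 0 := fun e => hf.pos (zero_dvd_iff.1 (e ▸ hdN))
        refine hn'.2 (Nat.mod_eq_zero_of_dvd ?_)
        have := hf.frob n hdN
        rwa [sumDvd, sum_eq hR.nodup hR.val (fun d => n % d == 0) n.divisors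
          (fun x hx hP => Nat.mem_divisors.2 ⟨Nat.dvd_of_mod_eq_zero (by simpa using hP), hn0⟩)
          (fun d hd hd0 => ⟨hall d hd0, by
            simpa using Nat.mod_eq_zero_of_dvd (Nat.dvd_of_mem_divisors hd)⟩)]
      · rw [beq_iff_eq] at h; subst h; exact ⟨fun x hx => (hR.val x hx).1, hN.symm, hall⟩
    | (m, os) :: r =>
      simp only [search, Bool.and_eq_true, List.all_eq_true] at h
      obtain ⟨h0, h1⟩ := h
      have hs := List.pairwise_cons.1 hR.sorted
      by_cases hm : f m = 0
      · refine ih _ _ h0 ⟨hR.nodup, hR.val, fun d hd => ?_, fun x hx => hR.disj x ?_, ?_⟩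
        · rcases hR.cover d hd with h | ⟨o, ho, ho'⟩
          · exact Or.inl h
          · rcases List.mem_cons.1 ho with e | e
            · exact absurd hm (by cases e; exact hd)
            · refine Or.inr ⟨o, List.mem_filter.2 ⟨e, ?_⟩, ho'⟩
              rw [Bool.not_eq_true', beq_eq_false_iff_ne]
              exact fun hz => hf.closed d m hd (Nat.dvd_of_mod_eq_zero hz) hm
        · exact List.mem_cons_of_mem _ (List.mem_filter.1 hx).1
        · exact hs.2.filter _
      · obtain ⟨o, ho, ho'⟩ : ∃ o, (m, o) ∈ (m, os) :: r ∧ f m ∈ o :=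
          (hR.cover m hm).resolve_left (hR.disj _ List.mem_cons_self)
        have hos : o = os := by
          rcases List.mem_cons.1 ho with e | e
          · exact (Prod.ext_iff.1 e).2
          · exact absurd (hs.1 _ e) (lt_irrefl m)
        subst hos
        have hmN := hf.dvdN m hm
        have hm0 : m ≠ 0 := fun e => hf.pos (zero_dvd_iff.1 (e ▸ hmN))
        have hmk : m ∉ acc.map Prod.fst := hR.disj _ List.mem_cons_self
        have hsum : sumDvd acc m = ∑ d ∈ m.divisors.erase m, f d := by
          refine sum_eq hR.nodup hR.val (fun d => m % d == 0) _ (fun x hx hP => ?_) fun d hd hd0 => ?_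
          · refine Finset.mem_erase.2 ⟨fun e => hmk (e ▸ List.mem_map.2 ⟨x, hx, rfl⟩), ?_⟩
            exact Nat.mem_divisors.2 ⟨Nat.dvd_of_mod_eq_zero (by simpa using hP), hm0⟩
          · obtain ⟨hne, hdm⟩ := Finset.mem_erase.1 hd
            refine ⟨(hR.cover d hd0).resolve_right ?_, by
              simpa using Nat.mod_eq_zero_of_dvd (Nat.dvd_of_mem_divisors hdm)⟩
            rintro ⟨o', ho'', -⟩
            rcases List.mem_cons.1 ho'' with e | e
            · exact hne (Prod.ext_iff.1 e).1
            · have h2 : m < d := hs.1 _ e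
              have h3 := Nat.divisor_le hdm
              omega
        have hnext := h1 _ ho'
        rw [Bool.or_eq_true] at hnext
        refine ih _ _ (hnext.resolve_left ?_) ⟨?_, ?_, fun d hd => ?_, fun x hx => ?_, hs.2⟩
        · have hd := hf.frob m hmN
          rw [← Finset.add_sum_erase _ f (Nat.mem_divisors_self m hm0), ← hsum] at hd
          simp [Nat.mod_eq_zero_of_dvd hd]
        · rw [List.map_cons, List.nodup_cons]; exact ⟨hmk, hR.nodup⟩
        · rintro x hx
          rcases List.mem_cons.1 hx with rfl | hx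
          · exact ⟨rfl, hm⟩
          · exact hR.val x hx
        · rcases hR.cover d hd with h | ⟨o', ho'', hd'⟩
          · exact Or.inl (List.mem_cons_of_mem _ h)
          · rcases List.mem_cons.1 ho'' with e | e
            · refine Or.inl ?_
              rw [show d = m from (Prod.ext_iff.1 e).1, List.map_cons]; exact List.mem_cons_self
            · exact Or.inr ⟨o', e, hd'⟩
        · rw [List.map_cons, List.mem_cons, not_or]
          exact ⟨(hs.1 x hx).ne', hR.disj x (List.mem_cons_of_mem _ hx)⟩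

end CfsgLib.NseSmall
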