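import Cfsg.Agent.NseSmall.Counts

/-!
Order and counts for the three small alternating groups.
-/

set_option autoImplicit false
set_option maxRecDepth 100000
set_option maxHeartbeats 4000000

namespace CfsgLib.NseSmall

/-- The candidates for `A_four`. -/
def cand_four : List (ℕ × List ℕ) :=
  [(2, [1, 3, 8]), (3, [8]), (4, [8]), (6, [8]), (8, [8]), (12, [8]), (16, [8]), (24, [8])]

/-- The candidates for `A_five`. -/
def cand_five : List (ℕ × List ℕ) :=
  [(2, [1, 15, 20, 24]), (3, [20, 24]), (4, [20, 24]), (5, [20, 24]), (6, [20, 24]), (8, [20, 24]),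
   (9, [24]), (10, [20, 24]), (12, [20, 24]), (15, [24]), (16, [24]), (18, [24]), (20, [24]),
   (24, [24]), (25, [20]), (30, [24]), (36, [24]), (45, [24]), (50, [20]), (72, [24]), (90, [24])]

/-- The candidates for `A_six`. -/
def cand_six : List (ℕ × List ℕ) :=
  [(2, [1, 45, 80, 90, 144]), (3, [80, 90, 144]), (4, [80, 90, 144]), (5, [80, 144]),
   (6, [80, 90, 144]), (7, [90, 144]), (8, [80, 144]), (9, [90, 144]), (10, [80, 144]), (12, [80, 144]),
   (14, [90, 144]), (15, [80, 144]), (16, [80, 144]), (18, [90, 144]), (20, [80, 144]), (21, [144]),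
   (24, [80, 144]), (25, [80]), (27, [90, 144]), (28, [144]), (30, [80, 144]), (32, [80, 144]),
   (35, [144]), (36, [144]), (40, [80, 144]), (42, [144]), (45, [144]), (48, [80, 144]), (50, [80]),
   (54, [90, 144]), (56, [144]), (60, [80, 144]), (63, [144]), (70, [144]), (72, [144]), (75, [80]),
   (84, [144]), (90, [144]), (100, [80]), (105, [144]), (108, [144]), (112, [144]), (126, [144]),
   (135, [144]), (140, [144]), (144, [144]), (150, [80]), (168, [144]), (180, [144]), (200, [80]),
   (210, [144]), (216, [144]), (252, [144]), (270, [144]), (300, [80]), (315, [144]), (432, [144]),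
   (504, [144]), (540, [144]), (630, [144])]

variable {G : Type*} [Group G] [Finite G]

theorem counts_four (hf : CountFn (cnt G) (Nat.card G) [1, 3, 8]) :
    Nat.card G = 12 ∧ cnt G 3 = 8 ∧ ∀ g : G, orderOf g ≤ 3 := by
  obtain ⟨h, hN, ho⟩ := determined 16 3 1 1 cand_four [(3, 8), (2, 3), (1, 1)] 20 12 hf (by decide)
    (by decide +kernel) (by decide +kernel) (by decide +kernel) (by decide) (by decide +kernel)
    (by decide +kernel) (by decide +kernel)
  exact ⟨hN, h (3, 8) (by simp), fun g => by have := ho g; simp only [List.map_cons, List.map_nil, List.mem_cons, List.not_mem_nil, or_false] at this; omega⟩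

theorem counts_five (hf : CountFn (cnt G) (Nat.card G) [1, 15, 20, 24]) :
    Nat.card G = 60 ∧ cnt G 3 = 20 ∧ cnt G 5 = 24 ∧ ∀ g : G, orderOf g ≤ 5 := by
  obtain ⟨h, hN, ho⟩ := determined 16 9 25 1 cand_five [(5, 24), (3, 20), (2, 15), (1, 1)] 28 25 hf (by decide)
    (by decide +kernel) (by decide +kernel) (by decide +kernel) (by decide) (by decide +kernel)
    (by decide +kernel) (by decide +kernel)
  exact ⟨hN, h (3, 20) (by simp), h (5, 24) (by simp), fun g => by have := ho g; simp only [List.map_cons, List.map_nil, List.mem_cons, List.not_mem_nil, or_false] at this; omega⟩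

theorem counts_six (hf : CountFn (cnt G) (Nat.card G) [1, 45, 80, 90, 144]) :
    Nat.card G = 360 ∧ cnt G 3 = 80 ∧ cnt G 5 = 144 ∧ ∀ g : G, orderOf g ≤ 5 := by
  obtain ⟨h, hN, ho⟩ := determined 32 27 25 7 cand_six [(5, 144), (4, 90), (3, 80), (2, 45), (1, 1)] 170 64 hf
    (by decide) (by decide +kernel) (by decide +kernel) (by decide +kernel) (by decide) (by decide +kernel)
    (by decide +kernel) (by decide +kernel)
  exact ⟨hN, h (3, 80) (by simp), h (5, 144) (by simp), fun g => by have := ho g; simp only [List.map_cons, List.map_nil, List.mem_cons, List.not_mem_nil, or_false] at this; omega⟩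

end CfsgLib.NseSmall
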